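import Cfsg.Agent.H0.TC
set_option maxRecDepth 100000
namespace H0.TCA72
open H0
noncomputable def tS : Tr := (.leaf (nat_lit 0x3f96644695c6d2fec9619901a263faec2d889800cfe4a4e45728d03f000000007406))
noncomputable def tJ : Tr := (.leaf (nat_lit 0x2025408240120c0080082610080011006db600))
noncomputable def tQ : Tr := (.leaf (nat_lit 0x0))
noncomputable def tR : TC.WTr := (.node (.node (.node (.node (.node (.leaf [0] 0 0 false) (.leaf [0, 2] 16 2 false)) (.leaf [2, 2, 2, 2] 14 0 true)) (.node (.node (.leaf [2] 1 0 false) (.leaf [7] 6 0 false)) (.leaf [5] 4 0 false))) (.node (.node (.node (.leaf [2, 5] 16 0 false) (.leaf [7] 6 0 false)) (.leaf [2, 0, 1] 15 3 false)) (.node (.node (.leaf [1] 1 1 false) (.leaf [3, 5, 3] 10 3 false)) (.leaf [5] 4 0 false)))) (.node (.node (.node (.node (.leaf [1, 3, 2] 15 1 false) (.leaf [5, 5] 9 0 true)) (.leaf [3] 3 0 false)) (.node (.node (.leaf [2] 1 0 false) (.leaf [6] 6 1 false))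 (.leaf [5] 4 0 false))) (.node (.node (.node (.leaf [2] 1 0 false) (.leaf [3, 4, 3] 10 0 true)) (.leaf [3] 3 0 false)) (.node (.node (.leaf [5, 0] 16 1 false) (.leaf [6] 6 1 false)) (.leaf [4] 4 1 false)))))
def hl : List ℕ := [3, 4, 5, 5, 4, 6, 7, 7, 6]
def B : List (List ℕ) := [[0, 0], [1, 2], [2, 1], [3, 3], [4, 5], [5, 4], [6, 7], [7, 6], [6, 6, 6], [4, 4, 4], [3, 5, 3, 7], [3, 4, 3, 4, 3, 4], [3, 4, 3, 5, 3, 4, 3, 5], [3, 5, 3, 5, 3, 5], [1, 1, 1, 1, 1], [2, 0, 1, 3], [0, 2, 5], [0, 1, 0, 1, 0, 1], [0, 1, 0, 2, 0, 1, 0, 2, 0, 1, 0, 2, 0, 1, 0, 2, 0, 1, 0, 2], [0, 2, 0, 2, 0, 2]]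
def subs : List (List ℕ) := [[3], [4], [5], [6], [7]]
def ex : List (List ℕ) := []
def inv (x : ℕ) : ℕ := [0, 2, 1, 3, 5, 4, 7, 6].getD x 0
noncomputable def rS : ℕ → ℕ := rowOf tS (nat_lit 8) (nat_lit 255) (nat_lit 54) (nat_lit 18014398509481983)
noncomputable def rJ : ℕ → ℕ := rowOf tJ (nat_lit 8) (nat_lit 255) (nat_lit 30) (nat_lit 1073741823)
noncomputable def C : TC.Cfg where
  S := look rS (nat_lit 6) (nat_lit 63)
  J := look rJ (nat_lit 3) (nat_lit 7)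
  Q := lookQ tQ (nat_lit 8) (nat_lit 1) (nat_lit 1)
  R := tR.get
  hl := fun x => hl.contains x
  n := (nat_lit 5)
  M := (nat_lit 5)
  top := (nat_lit 45)
  nl := (nat_lit 8)
  need := (nat_lit 8)
  nr := (nat_lit 3)
theorem k0 : TC.chkRange C 0 1 = true := by decide +kernel
theorem rows0 : ∀ c < (0 + 1) * 64, c < C.M → TC.chkRow C c = true :=
  TC.rows_step (TC.rows_zero C) k0
theorem main {G : Type*} [Group G] (g : ℕ → G) (hB : ∀ r ∈ B, ev g r = 1) (H : Subgroup G)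
    (hH : ∀ w ∈ subs, ev g w ∈ H) :
    H.relIndex (Subgroup.closure (g '' {x | x < 8})) ≠ 0 ∧
      H.relIndex (Subgroup.closure (g '' {x | x < 8})) ≤ 5 :=
  TC.index_le C B subs ex inv hl tR.hint rfl (by decide +kernel) (by decide +kernel)
    (TC.rows_done rows0 (by decide +kernel)) g hB H hH
end H0.TCA72
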